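import Cfsg.Agent.Lib.PermComp.MatCode
import Cfsg.Agent.Lib.TC.Core

/-!
# Matrix products in the kernel, row by row

A `d × d` matrix over `ZMod q` is coded by a natural number with two levels of digits: the digits of
width `wz = w * d` are the rows, and the digits of width `w` of a row are its entries.  A row of a
product is the linear combination of the rows of the second factor, computed by one addition and
one multiplication of natural numbers per term: since `w` is large enough, no carries occur.
-/

namespace Cfsg.Agent.Lib.TC.Mat.Fast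

open _root_.Cfsg.Agent.Lib.PermComp.Core (force force_eq app app_eq app_lt ifB ifB_eq_true allL allL_eq_true)
open _root_.Cfsg.Agent.Lib.PermComp.MatCode (tabAux app_tabAux tabAux_lt)

/-- The shape of the codes. -/
structure Shape where
  d : Nat
  q : Nat
  w : Nat
  mw : Nat
  wz : Nat
  mz : Nat
  hmw : mw = 2 ^ w - 1
  hwz : wz = d * w
  hmz : mz = 2 ^ wz - 1
  hq : 1 < q
  hq2 : q ≤ 2 ^ w
  hbound : d * ((q - 1) * (q - 1)) < 2 ^ w

variable (S : Shape)

/-- An entry of a code. -/
def entry (c i j : Nat) : Nat := app S.w S.mw (app S.wz S.mz c i) j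

/-- The matrix of a code. -/
def M (c : Nat) : Matrix (Fin S.d) (Fin S.d) (ZMod S.q) :=
  fun i j => ((entry S c i j : Nat) : ZMod S.q)

/-- The entries of a code are reduced. -/
def Canon (c : Nat) : Prop := ∀ i < S.d, ∀ j < S.d, entry S c i j < S.q

/-- A linear combination of rows. -/
noncomputable def rowLC (a e : Nat) (K acc : Nat) : Nat :=
  Nat.rec (motive := fun _ => Nat → Nat) (fun acc => acc)
    (fun k ih acc => force (Nat.add acc (Nat.mul (app S.w S.mw a k) (app S.wz S.mz e k))) ih) K acc

/-- The product of two codes. -/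
noncomputable def mulM (c e : Nat) : Nat :=
  tabAux S.wz (fun i => force (rowLC S (app S.wz S.mz c i) e S.d 0) fun x =>
    tabAux S.w (fun j => Nat.mod (app S.w S.mw x j) S.q) S.d 0) S.d 0

section Digits

/-- Expansion of a number in base `B`. -/
theorem sum_digits (B : Nat) (n : Nat) :
    ∀ r, r < B ^ n → r = ∑ j ∈ Finset.range n, (r / B ^ j % B) * B ^ j := by
  induction n with
  | zero =>
    intro r hr
    simp only [pow_zero] at hr
    simp
    omega
  | succ n ih =>
    intro r hr
    rw [Finset.sum_range_succ']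
    have h1 : r / B < B ^ n := by
      apply Nat.div_lt_of_lt_mul
      rw [← pow_succ']
      exact hr
    have h2 := ih (r / B) h1
    have h3 : ∀ j, r / B ^ (j + 1) % B * B ^ (j + 1) = (r / B / B ^ j % B * B ^ j) * B := by
      intro j
      rw [Nat.div_div_eq_div_mul, ← pow_succ', pow_succ]
      ring
    rw [Finset.sum_congr rfl (fun j _ => h3 j), ← Finset.sum_mul, ← h2]
    simp only [pow_zero, Nat.div_one, Nat.mul_one]
    have := Nat.div_add_mod r B
    rw [Nat.mul_comm] at this
    exact this.symm

/-- Uniqueness of the expansion. -/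
theorem digit_of_sum (B : Nat) (hB : 0 < B) (n : Nat) :
    ∀ (v : Nat → Nat), (∀ j < n, v j < B) → ∀ j < n,
      (∑ k ∈ Finset.range n, v k * B ^ k) / B ^ j % B = v j := by
  induction n with
  | zero => intro v _ j hj; omega
  | succ n ih =>
    intro v hv j hj
    rw [Finset.sum_range_succ']
    have h3 : ∀ k, v (k + 1) * B ^ (k + 1) = (v (k + 1) * B ^ k) * B := by
      intro k
      rw [pow_succ]
      ring
    rw [Finset.sum_congr rfl (fun k _ => h3 k), ← Finset.sum_mul]
    simp only [pow_zero, Nat.mul_one]
    cases j with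
    | zero =>
      simp only [pow_zero, Nat.div_one]
      rw [Nat.mul_comm, Nat.mul_add_mod, Nat.mod_eq_of_lt (hv 0 (by omega))]
    | succ j =>
      have h4 := ih (fun k => v (k + 1)) (fun k hk => hv _ (by omega)) j (by omega)
      rw [pow_succ', ← Nat.div_div_eq_div_mul, Nat.mul_comm, Nat.mul_add_div hB,
        Nat.div_eq_of_lt (hv 0 (by omega)), Nat.add_zero]
      exact h4

end Digits

theorem rowLC_eq (a e K acc : Nat) :
    rowLC S a e K acc = acc + ∑ k ∈ Finset.range K, app S.w S.mw a k * app S.wz S.mz e k := by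
  induction K generalizing acc with
  | zero => simp [rowLC]
  | succ K ih =>
    have h : rowLC S a e (K + 1) acc = rowLC S a e K
        (acc + app S.w S.mw a K * app S.wz S.mz e K) := by
      show force _ _ = _
      rw [force_eq]
      rfl
    rw [h, ih, Finset.sum_range_succ]
    omega

/-- The digits of the row of a product. -/
theorem digit_rowLC (a e j : Nat) (hj : j < S.d)
    (ha : ∀ k < S.d, app S.w S.mw a k < S.q)
    (he2 : ∀ k < S.d, ∀ j < S.d, app S.w S.mw (app S.wz S.mz e k) j < S.q) :
    app S.w S.mw (rowLC S a e S.d 0) j =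
      ∑ k ∈ Finset.range S.d, app S.w S.mw a k * app S.w S.mw (app S.wz S.mz e k) j := by
  have hB : 0 < 2 ^ S.w := by positivity
  set B := 2 ^ S.w with hBdef
  have hdig : ∀ r i, app S.w S.mw r i = r / B ^ i % B := by
    intro r i
    rw [app_eq S.hmw, hBdef, pow_mul]
  have hrow : ∀ k, app S.wz S.mz e k < B ^ S.d := by
    intro k
    have h := app_lt S.hmz e k
    have e1 : 2 ^ S.wz = B ^ S.d := by rw [S.hwz, Nat.mul_comm, pow_mul]
    rw [e1] at h
    exact h
  have hexp : ∀ k, app S.wz S.mz e k =
      ∑ i ∈ Finset.range S.d, app S.w S.mw (app S.wz S.mz e k) i * B ^ i := by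
    intro k
    have := sum_digits B S.d _ (hrow k)
    simp only [hdig]
    exact this
  have hsum : rowLC S a e S.d 0 = ∑ i ∈ Finset.range S.d,
      (∑ k ∈ Finset.range S.d, app S.w S.mw a k * app S.w S.mw (app S.wz S.mz e k) i) * B ^ i := by
    rw [rowLC_eq, Nat.zero_add]
    have h1 : ∀ k ∈ Finset.range S.d, app S.w S.mw a k * app S.wz S.mz e k =
        ∑ i ∈ Finset.range S.d,
          app S.w S.mw a k * app S.w S.mw (app S.wz S.mz e k) i * B ^ i := by
      intro k _
      conv_lhs => rw [hexp k]
      rw [Finset.mul_sum]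
      exact Finset.sum_congr rfl (fun i _ => by ring)
    rw [Finset.sum_congr rfl h1, Finset.sum_comm]
    exact Finset.sum_congr rfl (fun i _ => by rw [Finset.sum_mul])
  have hv : ∀ i < S.d, ∑ k ∈ Finset.range S.d,
      app S.w S.mw a k * app S.w S.mw (app S.wz S.mz e k) i < B := by
    intro i hi
    have hq := S.hq
    have h2 : ∀ k ∈ Finset.range S.d,
        app S.w S.mw a k * app S.w S.mw (app S.wz S.mz e k) i ≤ (S.q - 1) * (S.q - 1) := by
      intro k hk
      have hk' := Finset.mem_range.1 hk
      have h3 := ha k hk'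
      have h4 := he2 k hk' i hi
      exact Nat.mul_le_mul (by omega) (by omega)
    have h5 := Finset.sum_le_card_nsmul _ _ _ h2
    rw [Finset.card_range, smul_eq_mul] at h5
    exact lt_of_le_of_lt h5 S.hbound
  rw [hdig, hsum]
  exact digit_of_sum B hB S.d _ hv j hj

theorem entry_mulM (c e i j : Nat) (hi : i < S.d) (hj : j < S.d) :
    entry S (mulM S c e) i j =
      (app S.w S.mw (rowLC S (app S.wz S.mz c i) e S.d 0) j) % S.q := by
  have hw : ∀ x : Nat, tabAux S.w (fun j => Nat.mod (app S.w S.mw x j) S.q) S.d 0 < 2 ^ S.wz := by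
    intro x
    rw [S.hwz]
    refine tabAux_lt _ (fun i => ?_) _ _ (by omega)
    show app S.w S.mw x i % S.q < _
    exact lt_of_lt_of_le (Nat.mod_lt _ (by have := S.hq; omega)) S.hq2
  rw [entry, mulM, app_tabAux S.hmz _ (fun i => by rw [force_eq]; exact hw _) _ _ _ hi, force_eq,
    app_tabAux S.hmw _ (fun i => ?_) _ _ _ hj]
  · rfl
  · show app S.w S.mw _ i % S.q < _
    exact lt_of_lt_of_le (Nat.mod_lt _ (by have := S.hq; omega)) S.hq2

theorem canon_mulM (c e : Nat) : Canon S (mulM S c e) := by
  intro i hi j hj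
  rw [entry_mulM S c e i j hi hj]
  exact Nat.mod_lt _ (by have := S.hq; omega)

theorem M_mulM {c e : Nat} (hc : Canon S c) (he : Canon S e) :
    M S (mulM S c e) = M S c * M S e := by
  ext i j
  rw [Matrix.mul_apply]
  show ((entry S (mulM S c e) i j : Nat) : ZMod S.q) = _
  rw [entry_mulM S c e i j i.2 j.2,
    digit_rowLC S _ e j j.2 (fun k hk => hc i i.2 k hk) he]
  rw [ZMod.natCast_mod, Nat.cast_sum, Finset.sum_range]
  refine Finset.sum_congr rfl (fun k _ => ?_)
  rw [Nat.cast_mul]
  rfl

/-- The check that a code is reduced. -/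
noncomputable def canonB (c : Nat) : Bool :=
  allL (fun i => force (app S.wz S.mz c i) fun r =>
    allL (fun j => Nat.ble (Nat.succ (app S.w S.mw r j)) S.q) (List.range S.d)) (List.range S.d)

theorem canon_of_canonB {c : Nat} (h : canonB S c = true) : Canon S c := by
  intro i hi j hj
  have h1 := (allL_eq_true _ _).1 h i (List.mem_range.2 hi)
  rw [force_eq] at h1
  have h2 := (allL_eq_true _ _).1 h1 j (List.mem_range.2 hj)
  exact Nat.le_of_ble_eq_true h2

/-- The check that a code is the identity. -/
noncomputable def idB (c : Nat) : Bool :=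
  allL (fun i => force (app S.wz S.mz c i) fun r =>
    allL (fun j => Nat.beq (app S.w S.mw r j) (Bool.rec 0 1 (Nat.beq i j))) (List.range S.d))
    (List.range S.d)

theorem M_of_idB {c : Nat} (h : idB S c = true) : M S c = 1 := by
  ext i j
  have h1 := (allL_eq_true _ _).1 h i (List.mem_range.2 i.2)
  rw [force_eq] at h1
  have h2 := Nat.eq_of_beq_eq_true ((allL_eq_true _ _).1 h1 j (List.mem_range.2 j.2))
  show ((entry S c i j : Nat) : ZMod S.q) = _
  have h3 : entry S c i j = _ := h2
  rw [h3, Matrix.one_apply]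
  by_cases hij : i = j
  · subst hij
    simp [Nat.beq_refl]
  · have hne : (i : Nat) ≠ j := fun h => hij (Fin.ext h)
    have : Nat.beq (i : Nat) j = false := by
      rw [← Bool.not_eq_true]
      intro h5
      exact hne (Nat.eq_of_beq_eq_true h5)
    rw [this]
    simp [hij]

/-- The code of a word, multiplied on the left letter by letter. -/
noncomputable def wordM (code : Nat → Nat) (l : List Nat) (acc : Nat) : Nat :=
  List.rec (motive := fun _ => Nat → Nat) (fun acc => acc)
    (fun z _ ih acc => force (mulM S (code z) acc) ih) l acc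

theorem M_wordM {code : Nat → Nat} {k : Nat} (F : Nat → GL (Fin S.d) (ZMod S.q))
    (hF : ∀ c, c < k → ((F c : GL (Fin S.d) (ZMod S.q)) : Matrix (Fin S.d) (Fin S.d) (ZMod S.q)) = M S (code c))
    (hcan : ∀ c, c < k → Canon S (code c)) (l : List Nat) (hl : ∀ z ∈ l, z < k) (acc : Nat)
    (hacc : Canon S acc) :
    M S (wordM S code l acc) =
      ((Cfsg.Agent.Lib.TC.Core.prodA F l : GL (Fin S.d) (ZMod S.q)) : Matrix (Fin S.d) (Fin S.d) (ZMod S.q)) * M S acc := by
  induction l generalizing acc with
  | nil => simp [wordM, Cfsg.Agent.Lib.TC.Core.prodA_nil]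
  | cons z l ih =>
    have h : wordM S code (z :: l) acc = wordM S code l (mulM S (code z) acc) := by
      show force _ _ = _
      rw [force_eq]
      rfl
    have hz := hl z (by simp)
    rw [h, ih (fun y hy => hl y (by simp [hy])) _ (canon_mulM S _ _),
      M_mulM S (hcan z hz) hacc, Cfsg.Agent.Lib.TC.Core.prodA_cons, Units.val_mul, hF z hz, mul_assoc]

/-- A relator holds when its code evaluates to the identity. -/
theorem prodA_eq_one {code : Nat → Nat} {k : Nat} (F : Nat → GL (Fin S.d) (ZMod S.q))
    (hF : ∀ c, c < k → ((F c : GL (Fin S.d) (ZMod S.q)) : Matrix (Fin S.d) (Fin S.d) (ZMod S.q)) = M S (code c))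
    (hcan : ∀ c, c < k → Canon S (code c)) {idc : Nat} (hid : idB S idc = true)
    (hidc : Canon S idc) (l : List Nat) (hl : ∀ z ∈ l, z < k)
    (h : wordM S code l idc = idc) : Cfsg.Agent.Lib.TC.Core.prodA F l = 1 := by
  have h1 := M_wordM S F hF hcan l hl idc hidc
  rw [h, M_of_idB S hid, mul_one] at h1
  exact Units.ext h1.symm

end Cfsg.Agent.Lib.TC.Mat.Fast
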